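import Cfsg.Agent.Helper3.Simple.M21

/-! Simplicity of `M22`, `M23`, `M24` from the stabilizer criterion. -/

namespace Cfsg.Agent.Helper3

open Equiv
open scoped Pointwise

theorem prefS_card2 : (prefS 2).card = 22 := by decide +kernel

theorem prefS_card1 : (prefS 1).card = 23 := by decide +kernel

theorem prefS_card0 : (prefS 0).card = 24 := by decide +kernel

theorem M22_simple0 : SimpleIn (gSub [] 3) := by
  have hSinv : ∀ k ∈ gSub [] 3, ∀ a ∈ prefS 2, k a ∈ prefS 2 :=
    fun k hk a ha => pref_inv (j := 2) (by norm_num) hk ha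
  have h2t := two_trans_of_frame_fin (gSub [] 3) (prefS 2) (gPt 2) (gPt 3)
    (pref_2t 2 m24_lev2 m24_lev3)
  have hfaith : ∀ k ∈ gSub [] 3, (∀ a ∈ prefS 2, k a = a) → k = 1 :=
    fun k hk h => pref_faith (j := 2) (by norm_num) hk h
  have hx : gPt 2 ∈ prefS 2 := prefS_base (by norm_num)
  refine simpleIn_of_stab_fin (gSub [] 3) (prefS 2) (gPt 2) hx hSinv h2t hfaith ?_ ?_
  · rw [gSub_inf_stab [] 3 2 (by norm_num),
      show Nat.lor 3 (Nat.shiftLeft 1 2) = 7 from by decide]
    exact M21_simpleIn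
  · exact noreg_two_primes (gSub [] 3) (prefS 2) (gPt 2) hx hSinv h2t 2 11 (by norm_num)
      (by norm_num) (by norm_num) (by rw [prefS_card2]; norm_num)
      (by rw [prefS_card2]; norm_num)

theorem M23_simple0 : SimpleIn (gSub [] 1) := by
  have hSinv : ∀ k ∈ gSub [] 1, ∀ a ∈ prefS 1, k a ∈ prefS 1 :=
    fun k hk a ha => pref_inv (j := 1) (by norm_num) hk ha
  have h2t := two_trans_of_frame_fin (gSub [] 1) (prefS 1) (gPt 1) (gPt 2)
    (pref_2t 1 m24_lev1 m24_lev2)
  have hfaith : ∀ k ∈ gSub [] 1, (∀ a ∈ prefS 1, k a = a) → k = 1 :=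
    fun k hk h => pref_faith (j := 1) (by norm_num) hk h
  have hx : gPt 1 ∈ prefS 1 := prefS_base (by norm_num)
  have hx2 : gPt 2 ∈ prefS 1 := by
    rw [mem_prefS]
    intro i hi
    interval_cases i
    decide
  refine simpleIn_of_stab_fin (gSub [] 1) (prefS 1) (gPt 1) hx hSinv h2t hfaith ?_ ?_
  · rw [gSub_inf_stab [] 1 1 (by norm_num),
      show Nat.lor 1 (Nat.shiftLeft 1 1) = 3 from by decide]
    exact M22_simple0
  · obtain ⟨h, hh, hh1⟩ : ∃ h ∈ gSub [] 63, h ≠ 1 := by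
      by_contra hcon
      push Not at hcon
      have hb : gSub [] 63 = ⊥ := (Subgroup.eq_bot_iff_forall _).2 hcon
      have hc := gSub63_card
      rw [hb, Subgroup.card_bot] at hc
      omega
    exact noreg_prime (gSub [] 1) (prefS 1) (gPt 1) hx hSinv hfaith
      (by rw [prefS_card1]; norm_num) h (gSub_mono (by decide) hh) hh1 (gPt 1) (gPt 2) hx hx2
      (by decide) (gSub_fix_bit hh (by norm_num) (by decide))
      (gSub_fix_bit hh (by norm_num) (by decide))

theorem M24_simple0 : SimpleIn (gSub [] 0) := by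
  have hSinv : ∀ k ∈ gSub [] 0, ∀ a ∈ prefS 0, k a ∈ prefS 0 :=
    fun k hk a ha => pref_inv (j := 0) (by norm_num) hk ha
  have h2t := two_trans_of_frame_fin (gSub [] 0) (prefS 0) (gPt 0) (gPt 1)
    (pref_2t 0 m24_lev0 m24_lev1)
  have hfaith : ∀ k ∈ gSub [] 0, (∀ a ∈ prefS 0, k a = a) → k = 1 :=
    fun k hk h => pref_faith (j := 0) (by norm_num) hk h
  have hx : gPt 0 ∈ prefS 0 := prefS_base (by norm_num)
  refine simpleIn_of_stab_fin (gSub [] 0) (prefS 0) (gPt 0) hx hSinv h2t hfaith ?_ ?_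
  · rw [gSub_inf_stab [] 0 0 (by norm_num),
      show Nat.lor 0 (Nat.shiftLeft 1 0) = 1 from by decide]
    exact M23_simple0
  · exact noreg_two_primes (gSub [] 0) (prefS 0) (gPt 0) hx hSinv h2t 2 3 (by norm_num)
      (by norm_num) (by norm_num) (by rw [prefS_card0]; norm_num)
      (by rw [prefS_card0]; norm_num)

/-- `M24` is simple -/
theorem M24_simpleIn : SimpleIn M24 := by
  rw [← gSub_nil_zero]
  exact M24_simple0

theorem gSub_nil_1 : gSub [] 1 = M24 ⊓ MulAction.stabilizer (Perm GolayPt) (gPt 0) := by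
  have h := gSub_inf_stab [] 0 0 (by norm_num)
  rw [show Nat.lor 0 (Nat.shiftLeft 1 0) = 1 from by decide, gSub_nil_zero] at h
  exact h.symm

theorem gSub_nil_3 : gSub [] 3 = M24 ⊓ MulAction.stabilizer (Perm GolayPt) (gPt 0) ⊓
    MulAction.stabilizer (Perm GolayPt) (gPt 1) := by
  have h := gSub_inf_stab [] 1 1 (by norm_num)
  rw [show Nat.lor 1 (Nat.shiftLeft 1 1) = 3 from by decide, gSub_nil_1] at h
  exact h.symm

/-- the stabilizer of a point is simple -/
theorem M23_simpleIn (p : GolayPt) :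
    SimpleIn (M24 ⊓ MulAction.stabilizer (Perm GolayPt) p) := by
  obtain ⟨c, hc, hcp⟩ := M24_trans1 (gPt 0) p
  refine M23_simple0.conj c ?_
  intro k
  rw [gSub_nil_1]
  simp only [Subgroup.mem_inf]
  rw [conj_mem_iff M24 hc, conj_mem_stab_iff, Perm.smul_def, hcp]

/-- the stabilizer of two points is simple -/
theorem M22_simpleIn (p q : GolayPt) (hpq : p ≠ q) :
    SimpleIn (M24 ⊓ MulAction.stabilizer (Perm GolayPt) p ⊓
      MulAction.stabilizer (Perm GolayPt) q) := by
  obtain ⟨c, hc, hcp, hcq⟩ := M24_trans2 (gPt 0) (gPt 1) p q (by decide) hpq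
  refine M22_simple0.conj c ?_
  intro k
  rw [gSub_nil_3]
  simp only [Subgroup.mem_inf]
  rw [conj_mem_iff M24 hc, conj_mem_stab_iff, conj_mem_stab_iff, Perm.smul_def, Perm.smul_def,
    hcp, hcq]

end Cfsg.Agent.Helper3
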